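import Cfsg.Agent.Fi22.Simp

/-!
# Type M(23), without the joint centraliser: basic facts

(the arguments are those of `Cfsg.Agent.Fi22.H23`)
-/

set_option autoImplicit false
set_option linter.unusedSectionVars false
set_option linter.unusedSimpArgs false

namespace Cfsg.Agent.F3W

open Finset Cfsg.Agent.Uni Cfsg.Agent.Fi22 Cfsg.Agent.ThreeTransp

variable {G : Type*} [Group G] {D : Set G}

/-- the part of `IsOfTypeM23` that concerns the members commuting with one member -/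
def T23 (G : Type*) [Group G] (D : Set G) : Prop :=
  Subgroup.center G = ⊥ ∧ ∃ d ∈ D, ∃ c ∈ D, ¬ Commute d c ∧
    Cfsg.IsOfTypeM22 (↥(Subgroup.closure {y : G | y ∈ D ∧ y ≠ d ∧ Commute d y}) ⧸ Subgroup.center ↥(Subgroup.closure {y : G | y ∈ D ∧ y ≠ d ∧ Commute d y}))
      ((QuotientGroup.mk : ↥(Subgroup.closure {y : G | y ∈ D ∧ y ≠ d ∧ Commute d y}) → _) ''
        {x : ↥(Subgroup.closure {y : G | y ∈ D ∧ y ≠ d ∧ Commute d y}) | (x : G) ∈ {y : G | y ∈ D ∧ y ≠ d ∧ Commute d y}}) ∧ True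

theorem noTwin_w23 [Finite G] (h : W3 D) (h23 : T23 G D) : NoTwin D := by
  obtain ⟨-, d, hd, -, -, -, h22, -⟩ := h23
  exact noTwin_up h hd (noTwin_22 (w3_qperp h d) h22)

variable [Finite G]

/-- Type M(23). -/
structure W23 (D : Set G) : Prop where
  cls : Cfsg.IsThreeTranspositionClass D
  irr : Irred D
  typ : T23 G D
  conn : (Cfsg.commutingGraph D).Connected

namespace W23

variable (h : W23 D)
include h

theorem hconj : ∀ g : G, ∀ d ∈ D, g * d * g⁻¹ ∈ D := fun g _ hd => conj_mem h.cls hd g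

theorem special : Quad D ∧ ∃ a ∈ D, ∃ e₀ ∈ D, ¬ Commute a e₀ ∧ H22 (qperp D a) := by
  obtain ⟨-, a, ha, e₀, he₀, hae₀, h22, -⟩ := h.typ
  have h22' : Cfsg.IsOfTypeM22 (↥(Subgroup.closure (perp D a)) ⧸ Subgroup.center ↥(Subgroup.closure (perp D a)))
    (qperp D a) := h22
  clear h22
  have hN : NoTwin (qperp D a) := noTwin_22 (w3_qperp (w3_of_set h.cls.1) a) h22'
  obtain ⟨z, hz, w, hw, hzw, -⟩ := hN
  obtain ⟨b, hb, -⟩ := exists_qm hz
  have hcl := class_qperp h.cls h.irr ha he₀ hae₀ hb ⟨z, hz, w, hw, hzw⟩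
  obtain ⟨u, hu, v, hv, huv⟩ := perp_nc hcl h22' hz
  have hq := quad_of h.cls h.irr ha he₀ hae₀ ⟨z, hz, u, hu, v, hv, huv⟩
  have hp := prim_qperp h.cls h.irr ha he₀ hae₀ hq h22'.1 (noTwin_22 (w3_qperp (w3_of_set h.cls.1) a) h22')
  exact ⟨hq, a, ha, e₀, he₀, hae₀, ⟨hp.1, hp.2.2.1, h22', hp.2.2.2⟩⟩

theorem core : Core D := by
  obtain ⟨-, a, ha, e₀, he₀, hae₀, h22⟩ := h.special
  refine ⟨h.cls, h.irr, h.typ.1, h.conn, ?_, ?_⟩
  · intro d hd
    obtain ⟨g, rfl⟩ := exists_conj h.cls ha hd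
    exact ⟨_, h.hconj g _ he₀, by rw [commute_conj_iff]; exact hae₀⟩
  · intro d hd
    obtain ⟨g, rfl⟩ := exists_conj h.cls ha hd
    obtain ⟨⟨z, hz⟩⟩ := h22.conn.nonempty
    obtain ⟨b, hb, -⟩ := exists_qm hz
    exact ⟨_, (perp_conj_iff h.hconj g).2 hb⟩

theorem par : ∀ cl : DecidableEq G, Comb.Par (DF D) (NF D) 3510 693 180 126 45 := by
  intro cl
  obtain ⟨-, a, ha, e₀, he₀, hae₀, h22⟩ := h.special
  have := par_up (looks_qperp h.cls h.irr ha he₀ hae₀) h.cls ha h22.par h22.card_DF h22.std.mu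
  convert this

theorem high : High D 22 5 := by
  obtain ⟨-, a, ha, e₀, he₀, hae₀, h22⟩ := h.special
  exact high_of_low h.core ha h22.low

theorem lev : Lev D 3510 693 180 126 45 where
  cls := h.cls
  irr := h.irr
  cen := h.typ.1
  conn := h.conn
  pr := by
    obtain ⟨⟨d, hd⟩⟩ := h.conn.nonempty
    obtain ⟨a, ha⟩ := h.core.prn d hd
    exact ⟨d, hd, a, ha.1, ha.2.1.symm, ha.2.2⟩
  nc := h.core.nc
  par := h.par _

theorem std : Std D 351 63 27 := (std23 h.lev).1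

theorem card_DF : (DF D).card = 31671 := (std23 h.lev).2

theorem card_D : D.ncard = 31671 := by
  rw [← h.card_DF]
  have : D = ((DF D : Finset G) : Set G) := by ext x; simp [mem_DF]
  nth_rewrite 1 [this]
  rw [Set.ncard_coe_finset]

theorem low : Low D 23 6 :=
  h.high.low h.core h.std (Classical.decEq G) (h.par _) (by norm_num) (by norm_num) (by norm_num) (by norm_num)
    (by rw [h.card_DF]; norm_num)

theorem centralizer_eq {d : G} (hd : d ∈ D) : Subgroup.centralizer {d} = Subgroup.closure (perp D d) :=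
  h.high.centralizer_eq h.low.cent hd

theorem card_quot {d : G} (hd : d ∈ D) :
    Nat.card (Subgroup.closure (perp D d)) = 2 * (2 ^ 17 * 3 ^ 9 * 5 ^ 2 * 7 * 11 * 13) := by
  obtain ⟨-, a, ha, e₀, he₀, hae₀, h22⟩ := h.special
  obtain ⟨g, rfl⟩ := exists_conj h.cls ha hd
  obtain ⟨f⟩ := nonempty_perp_equiv h.hconj a g
  rw [← Nat.card_congr f.toEquiv, card_closure_up h.cls ha (h.high.cp a ha) (h.high.self ha), h22.card_G]

theorem card_G : Nat.card G = 2 ^ 18 * 3 ^ 13 * 5 ^ 2 * 7 * 11 * 13 * 17 * 23 := by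
  obtain ⟨⟨d, hd⟩⟩ := h.conn.nonempty
  rw [card_eq_mul h.cls hd, h.centralizer_eq hd, h.card_quot hd, h.card_D]
  norm_num

end W23

end Cfsg.Agent.F3W
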