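import Cfsg.Agent.Fi22.J23
import Cfsg.Agent.F3W.Yc

/-!
# Type M(23), without the joint centraliser: the tenth transposition

(the arguments are those of `Cfsg.Agent.Fi22.J23`)
-/

set_option autoImplicit false
set_option linter.unusedSectionVars false
set_option linter.unusedSimpArgs false

namespace Cfsg.Agent.F3W

open Finset Cfsg.Agent.Uni Cfsg.Agent.Fi22 Cfsg.Agent.ThreeTransp

variable {G : Type*} [Group G] {D : Set G}

namespace W23

variable [Finite G] (hM : W23 D)

include hM

/-- heptads with two common members, all of whose members commute, have a third common member -/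
theorem meet {l l' : List G} (hl : IsFact D 7 1 l) (hl' : IsFact D 7 1 l') {c e : G} (hce : c ≠ e) (cl : c ∈ l)
    (el : e ∈ l) (cl' : c ∈ l') (el' : e ∈ l') (hc : ∀ x ∈ l, ∀ y ∈ l', Commute x y) :
    ∃ m ∈ l, m ∈ l' ∧ m ≠ c ∧ m ≠ e := by
  have hcD := hl.2.2.1 c cl
  have H := hM.desc hcD
  obtain ⟨t, ht, ht2⟩ := fact_front hl cl
  obtain ⟨t', ht', ht2'⟩ := fact_front hl' cl'
  obtain ⟨p, f⟩ := H.down (t := t) ht
  obtain ⟨p', f'⟩ := H.down (t := t') ht'
  have et : e ∈ t := ((ht2 e).1 el).resolve_left hce.symm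
  have et' : e ∈ t' := ((ht2' e).1 el').resolve_left hce.symm
  obtain ⟨s, hs, hs2⟩ := fact_front f (List.mem_map.2 ⟨e, et, rfl⟩)
  obtain ⟨s', hs', hs2'⟩ := fact_front f' (List.mem_map.2 ⟨e, et', rfl⟩)
  obtain ⟨m, hm, hm'⟩ := (hM.all hcD).meet hs hs' (by
    intro x hx y hy
    obtain ⟨x', hx', rfl⟩ := List.mem_map.1 ((hs2 x).2 (Or.inr hx))
    obtain ⟨y', hy', rfl⟩ := List.mem_map.1 ((hs2' y).2 (Or.inr hy))
    rw [H.comm (p x' hx') (p' y' hy')]
    exact hc x' ((ht2 _).2 (Or.inr hx')) y' ((ht2' _).2 (Or.inr hy')))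
  obtain ⟨x', hx', rfl⟩ := List.mem_map.1 ((hs2 m).2 (Or.inr hm))
  obtain ⟨y', hy', hxy⟩ := List.mem_map.1 ((hs2' _).2 (Or.inr hm'))
  rw [H.inj (p' y' hy') (p x' hx')] at hxy
  subst hxy
  refine ⟨y', (ht2 _).2 (Or.inr hx'), (ht2' _).2 (Or.inr hy'), (p y' hx').2.1, ?_⟩
  rintro rfl
  exact (List.nodup_cons.1 hs.1).1 hm

/-- transpositions in general position with respect to a heptad -/
theorem exists_far3 {p o : G} (hp : p ∈ D) (ho : o ∈ perp D p) {t0 t1 t2 t3 t4 t5 u v w : G}
    (hl : IsFact D 7 1 [p, t0, t1, t2, t3, t4, t5]) (hto : ∀ s ∈ [t0, t1, t2, t3, t4, t5], s ∈ perp D o)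
    (hu : u ∈ perp D p) (uo : u ∈ perp D o) (hv : v ∈ perp D p) (vo : v ∈ perp D o) (hw : w ∈ perp D p)
    (wo : w ∈ perp D o) (u0 : Commute u t0) (u1 : Commute u t1) (u4 : ¬ Commute u t4) (v0 : Commute v t0)
    (v2 : Commute v t2) (v1 : ¬ Commute v t1) (w4 : Commute w t4) (w5 : Commute w t5) (w0 : ¬ Commute w t0)
    (uv : Commute u v) (uw : Commute u w) (vw : Commute v w) :
    ∃ x ∈ perp D p, ¬ Commute x o ∧ (∀ s ∈ [t0, t1, t2, t3, t4, t5], Commute x s) ∧ Commute x u ∧ Commute x v ∧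
      Commute x w := by
  have H := hM.desc hp
  obtain ⟨pt, f⟩ := H.down hl
  simp only [List.map_cons, List.map_nil] at f
  have P0 := pt t0 (by simp)
  have P1 := pt t1 (by simp)
  have P2 := pt t2 (by simp)
  have P4 := pt t4 (by simp)
  have P5 := pt t5 (by simp)
  obtain ⟨X, hX, X1, X2, X3, X4, X5⟩ := (hM.all hp).exists_far3 (Desc.mem ho) f (by
      intro s hs
      have : s ∈ [t0, t1, t2, t3, t4, t5].map (qφ D p) := by simpa using hs
      obtain ⟨s', hs', rfl⟩ := List.mem_map.1 this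
      exact (H.perp_iff ho (pt s' hs')).2 (hto s' hs'))
    ((H.perp_iff ho hu).2 uo) ((H.perp_iff ho hv).2 vo) ((H.perp_iff ho hw).2 wo)
    ((H.comm hu P0).2 u0) ((H.comm hu P1).2 u1) (fun h => u4 ((H.comm hu P4).1 h)) ((H.comm hv P0).2 v0)
    ((H.comm hv P2).2 v2) (fun h => v1 ((H.comm hv P1).1 h)) ((H.comm hw P4).2 w4) ((H.comm hw P5).2 w5)
    (fun h => w0 ((H.comm hw P0).1 h)) ((H.comm hu hv).2 uv) ((H.comm hu hw).2 uw) ((H.comm hv hw).2 vw)
  obtain ⟨x, hx, rfl⟩ := Desc.lift hX
  refine ⟨x, hx, fun h => X1 ((H.comm hx ho).2 h), ?_, (H.comm hx hu).1 X3, (H.comm hx hv).1 X4, (H.comm hx hw).1 X5⟩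
  intro s hs
  exact (H.comm hx (pt s hs)).1 (X2 _ (by
    have := List.mem_map_of_mem (f := qφ D p) hs
    simpa using this))

/-- glueing -/
theorem glue {i o : G} (hi : i ∈ D) (ho : o ∈ perp D i) {c e z p q r u u' f d : G}
    (hl : IsFact D 7 1 [i, c, e, z, p, q, r]) (hp : ∀ s ∈ [c, e, z, p, q, r], s ∈ perp D o)
    (hu : u ∈ perp D i) (uo : u ∈ perp D o) (hu' : u' ∈ perp D i) (uo' : u' ∈ perp D o) (hf : f ∈ perp D i)
    (fo : f ∈ perp D o) (hd : d ∈ perp D i) (dO : d ∈ perp D o)
    (uc : Commute u c) (ue : Commute u e) (uz : ¬ Commute u z) (uc' : Commute u' c)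
    (ue' : Commute u' e) (uz' : ¬ Commute u' z) (fc : Commute f c) (fz : Commute f z) (fu : Commute f u)
    (fu' : Commute f u') (fe : ¬ Commute f e) (dz : Commute d z) (du : Commute d u) (du' : Commute d u')
    (dc : ¬ Commute d c) : u' = u ∨ u' = z * u * z⁻¹ := by
  have H := hM.desc hi
  obtain ⟨pt, F⟩ := H.down hl
  simp only [List.map_cons, List.map_nil] at F
  have Pc := pt c (by simp)
  have Pe := pt e (by simp)
  have Pz := pt z (by simp)
  have key := (hM.all hi).glue (Desc.mem ho) F (by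
      intro s hs
      have : s ∈ [c, e, z, p, q, r].map (qφ D i) := by simpa using hs
      obtain ⟨s', hs', rfl⟩ := List.mem_map.1 this
      exact (H.perp_iff ho (pt s' hs')).2 (hp s' hs'))
    ((H.perp_iff ho hu).2 uo) ((H.perp_iff ho hu').2 uo') ((H.perp_iff ho hf).2 fo) ((H.perp_iff ho hd).2 dO)
    ((H.comm hu Pc).2 uc) ((H.comm hu Pe).2 ue) (fun h => uz ((H.comm hu Pz).1 h)) ((H.comm hu' Pc).2 uc')
    ((H.comm hu' Pe).2 ue') (fun h => uz' ((H.comm hu' Pz).1 h)) ((H.comm hf Pc).2 fc) ((H.comm hf Pz).2 fz)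
    ((H.comm hf hu).2 fu) ((H.comm hf hu').2 fu') (fun h => fe ((H.comm hf Pe).1 h)) ((H.comm hd Pz).2 dz)
    ((H.comm hd hu).2 du) ((H.comm hd hu').2 du') (fun h => dc ((H.comm hd Pc).1 h))
  obtain ⟨h1, h2⟩ := H.conj Pz hu
  rw [← h2, H.inj hu' hu, H.inj hu' h1] at key
  exact key

variable {z a b c d e f g h i δ : G} (Y : Yc D z a b c d e f g h i δ)

include Y

/-- the heptad through `c`, `e`, `h`, `δ` contains `a` or `g` -/
theorem alt : ∃ l, IsFact D 7 1 l ∧ c ∈ l ∧ e ∈ l ∧ h ∈ l ∧ δ ∈ l ∧ (a ∈ l ∨ g ∈ l) := by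
  have S := hM.sys
  have hce : c ≠ e := fun h => Y.bc (by rw [h]; exact Y.be)
  have hch : c ≠ h := fun h => Y.hi (by rw [← h]; exact Y.ci)
  have heh : e ≠ h := fun h => Y.hi (by rw [← h]; exact Y.ei)
  have hδc : δ ≠ c := fun h => Y.δf (by rw [h]; exact Y.cf)
  have hδe : δ ≠ e := fun h => Y.δb (by rw [h]; exact Y.be.symm)
  obtain ⟨t, ht⟩ := S.ex [c, e, h, δ] (by simp [hce, hch, heh, Ne.symm hδc, Ne.symm hδe, Ne.symm Y.δH]) rfl
    (by
      intro x hx
      simp only [List.mem_cons, List.not_mem_nil, or_false] at hx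
      rcases hx with rfl | rfl | rfl | rfl
      · exact Y.pc.1
      · exact Y.pe.1
      · exact Y.ph.1
      · exact Y.pδ.1)
    (by
      intro x hx y hy
      simp only [List.mem_cons, List.not_mem_nil, or_false] at hx hy
      rcases hx with rfl | rfl | rfl | rfl <;> rcases hy with rfl | rfl | rfl | rfl
      · exact Commute.refl _
      · exact Y.ce
      · exact Y.ch
      · exact Y.δc.symm
      · exact Y.ce.symm
      · exact Commute.refl _
      · exact Y.eh
      · exact Y.δE.symm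
      · exact Y.ch.symm
      · exact Y.eh.symm
      · exact Commute.refl _
      · exact Y.δh.symm
      · exact Y.δc
      · exact Y.δE
      · exact Y.δh
      · exact Commute.refl _)
  set Λ := [c, e, h, δ] ++ t with hΛ
  have cΛ : c ∈ Λ := by simp [hΛ]
  have eΛ : e ∈ Λ := by simp [hΛ]
  have hΛh : h ∈ Λ := by simp [hΛ]
  have δΛ : δ ∈ Λ := by simp [hΛ]
  obtain ⟨y, y', hl7, hyy⟩ := Y.hex
  have hnd := hl7.1
  simp only [List.nodup_cons, List.mem_cons, List.not_mem_nil, or_false, not_or, List.nodup_nil, and_true,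
    not_false_eq_true] at hnd
  obtain ⟨⟨nza, nzc, nze, nzg, -⟩, ⟨nac, nae, nag, -⟩, ⟨nce, ncg, -⟩, ⟨neg, -⟩, -⟩ := hnd
  -- members commuting with `l7`
  have hl7h : ∀ s ∈ [z, a, c, e, g, y, y'], Commute h s := by
    refine S.all _ [z, a, c, e] h hl7 (by simp [nza, nzc, nze, nac, nae, nce]) rfl (by
      intro x hx
      simp only [List.mem_cons, List.not_mem_nil, or_false] at hx ⊢
      rcases hx with rfl | rfl | rfl | rfl <;> simp) Y.ph.1 ?_
    intro x hx
    simp only [List.mem_cons, List.not_mem_nil, or_false] at hx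
    rcases hx with rfl | rfl | rfl | rfl
    · exact Y.ph.2.2.symm
    · exact Y.ah.symm
    · exact Y.ch.symm
    · exact Y.eh.symm
  have hl7δ : ∀ s ∈ [z, a, c, e, g, y, y'], Commute δ s := by
    refine S.all _ [z, a, c, e] δ hl7 (by simp [nza, nzc, nze, nac, nae, nce]) rfl (by
      intro x hx
      simp only [List.mem_cons, List.not_mem_nil, or_false] at hx ⊢
      rcases hx with rfl | rfl | rfl | rfl <;> simp) Y.pδ.1 ?_
    intro x hx
    simp only [List.mem_cons, List.not_mem_nil, or_false] at hx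
    rcases hx with rfl | rfl | rfl | rfl
    · exact Y.pδ.2.2.symm
    · exact Y.δa
    · exact Y.δc
    · exact Y.δE
  have hall : ∀ x ∈ [z, a, c, e, g, y, y'], ∀ s ∈ Λ, Commute x s := by
    intro x hx
    refine S.all _ [c, e, h, δ] x ht (by simp [hce, hch, heh, Ne.symm hδc, Ne.symm hδe, Ne.symm Y.δH]) rfl (by
      intro x hx
      simp only [List.mem_cons, List.not_mem_nil, or_false] at hx
      rcases hx with rfl | rfl | rfl | rfl <;> assumption) (hl7.2.2.1 x hx) ?_
    intro s hs
    simp only [List.mem_cons, List.not_mem_nil, or_false] at hs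
    rcases hs with rfl | rfl | rfl | rfl
    · exact hl7.2.2.2.1 x hx s (by simp)
    · exact hl7.2.2.2.1 x hx s (by simp)
    · exact (hl7h x hx).symm
    · exact (hl7δ x hx).symm
  have hzΛ : z ∉ Λ := fun hz => Y.nohex Λ ht hz cΛ eΛ hΛh δΛ
  obtain ⟨m, m1, m2, m3, m4⟩ := hM.meet hl7 ht hce (by simp) (by simp) cΛ eΛ hall
  have hbad : (m = y ∨ m = y') → False := by
    intro hm
    obtain ⟨l, hl, lz, lh, lδ, lm, lce⟩ := hyy m hm
    have hmh : m ≠ h := by
      rintro rfl
      have h1 := S.all _ [z, a, c, e] i hl7 (by simp [nza, nzc, nze, nac, nae, nce]) rfl (by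
        intro x hx
        simp only [List.mem_cons, List.not_mem_nil, or_false] at hx ⊢
        rcases hx with rfl | rfl | rfl | rfl <;> simp) Y.pi.1 (by
          intro x hx
          simp only [List.mem_cons, List.not_mem_nil, or_false] at hx
          rcases hx with rfl | rfl | rfl | rfl
          · exact Y.pi.2.2.symm
          · exact Y.ai.symm
          · exact Y.ci.symm
          · exact Y.ei.symm) m m1
      exact Y.hi h1.symm
    have hmδ : m ≠ δ := by
      rintro rfl
      have h1 := S.all _ [z, a, c, e] i hl7 (by simp [nza, nzc, nze, nac, nae, nce]) rfl (by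
        intro x hx
        simp only [List.mem_cons, List.not_mem_nil, or_false] at hx ⊢
        rcases hx with rfl | rfl | rfl | rfl <;> simp) Y.pi.1 (by
          intro x hx
          simp only [List.mem_cons, List.not_mem_nil, or_false] at hx
          rcases hx with rfl | rfl | rfl | rfl
          · exact Y.pi.2.2.symm
          · exact Y.ai.symm
          · exact Y.ci.symm
          · exact Y.ei.symm) m m1
      exact Y.δi h1.symm
    apply hzΛ
    rcases lce with lc | le
    · exact S.ext _ _ [c, h, δ, m] hl ht (by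
        simp [hch, Ne.symm hδc, Ne.symm m3, Ne.symm Y.δH, Ne.symm hmh, Ne.symm hmδ]) rfl (by
          intro x hx
          simp only [List.mem_cons, List.not_mem_nil, or_false] at hx
          rcases hx with rfl | rfl | rfl | rfl <;> assumption) (by
          intro x hx
          simp only [List.mem_cons, List.not_mem_nil, or_false] at hx
          rcases hx with rfl | rfl | rfl | rfl <;> assumption) z lz
    · exact S.ext _ _ [e, h, δ, m] hl ht (by
        simp [heh, Ne.symm hδe, Ne.symm m4, Ne.symm Y.δH, Ne.symm hmh, Ne.symm hmδ]) rfl (by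
          intro x hx
          simp only [List.mem_cons, List.not_mem_nil, or_false] at hx
          rcases hx with rfl | rfl | rfl | rfl <;> assumption) (by
          intro x hx
          simp only [List.mem_cons, List.not_mem_nil, or_false] at hx
          rcases hx with rfl | rfl | rfl | rfl <;> assumption) z lz
  refine ⟨Λ, ht, cΛ, eΛ, hΛh, δΛ, ?_⟩
  simp only [List.mem_cons, List.not_mem_nil, or_false] at m1
  rcases m1 with rfl | rfl | rfl | rfl | rfl | rfl | rfl
  · exact absurd m2 hzΛ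
  · exact Or.inl m2
  · exact absurd rfl m3
  · exact absurd rfl m4
  · exact Or.inr m2
  · exact absurd (Or.inl rfl) hbad
  · exact absurd (Or.inr rfl) hbad

end W23

end Cfsg.Agent.F3W
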