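import Cfsg.Agent.F3W.H
import Cfsg.Agent.Fi22.Trans

/-!
# Type M(23), without the joint centraliser: simplicity

(the arguments are those of `Cfsg.Agent.Fi22.Simp`)
-/

set_option autoImplicit false
set_option linter.unusedSectionVars false
set_option linter.unusedSimpArgs false

namespace Cfsg.Agent.F3W

open Finset Cfsg.Agent.Uni Cfsg.Agent.Fi22 Cfsg.Agent.ThreeTransp

variable {G : Type*} [Group G] {D : Set G}

variable [Finite G]

namespace W23

variable (h : W23 D)
include h

theorem noTwin : NoTwin D := noTwin_w23 (w3_of_set h.cls.1) h.typ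

theorem quasi {d : G} (hd : d ∈ D) : Cfsg.IsQuasisimple ↥(Subgroup.closure (perp D d)) := by
  obtain ⟨-, a, ha, e₀, he₀, hae₀, h22⟩ := h.special
  have hf := h.high.fact a ha
  have hp := perfect_up h.cls h.irr ha he₀ hae₀ (h.high.cp a ha) h22.commutator_eq_top (by decide) hf
  obtain ⟨g, rfl⟩ := exists_conj h.cls ha hd
  obtain ⟨f⟩ := nonempty_perp_equiv h.hconj a g
  refine ⟨⟨?_⟩, ?_⟩
  · have h1 : (commutator ↥(Subgroup.closure (perp D a))).map f.toMonoidHom =
        commutator ↥(Subgroup.closure (perp D (g * a * g⁻¹))) := by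
      rw [commutator_def, commutator_def, Subgroup.map_commutator, Subgroup.map_top_of_surjective _ f.surjective]
    rw [← h1, hp, Subgroup.map_top_of_surjective _ f.surjective]
  · have h1 := h22.simple
    have e := QuotientGroup.congr _ _ f (map_center_equiv f)
    have hnt : Nontrivial (↥(Subgroup.closure (perp D (g * a * g⁻¹))) ⧸
        Subgroup.center ↥(Subgroup.closure (perp D (g * a * g⁻¹)))) := by
      have := h1.toNontrivial
      exact e.symm.toEquiv.nontrivial
    exact IsSimpleGroup.isSimpleGroup_of_surjective e.toMonoidHom e.surjective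

theorem commutator_eq_top : commutator G = ⊤ := by
  rw [eq_top_iff, ← h.cls.2.2, Subgroup.closure_le]
  intro d hd
  have h1 : (⟨d, h.high.self hd⟩ : ↥(Subgroup.closure (perp D d))) ∈
      commutator ↥(Subgroup.closure (perp D d)) := by
    have := (h.quasi hd).1.commutator_eq_top
    rw [this]; trivial
  have h2 : (commutator ↥(Subgroup.closure (perp D d))).map (Subgroup.closure (perp D d)).subtype ≤ commutator G := by
    rw [commutator_def, commutator_def, Subgroup.map_commutator]
    exact Subgroup.commutator_mono le_top le_top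
  exact h2 ⟨_, h1, rfl⟩

theorem simple : IsSimpleGroup G := simple_of_perfect (prim_of_noTwin h.core h.noTwin).2 h.commutator_eq_top

omit h in
theorem of_primitive (hD : Cfsg.IsThreeTranspositionGroup D) (hprim : Cfsg.IsPrimitiveUnderConj D)
    (h23 : T23 G D) : W23 D where
  cls := ThreeTrans.class_of_primitive hD hprim
  irr := irred_of_primitive (ThreeTrans.class_of_primitive hD hprim) hprim
  typ := h23
  conn := by
    apply ThreeTrans.connected_of_primitive hD.2.1 hprim
    obtain ⟨d, hd, -, -, -, h22, -⟩ := h23.2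
    obtain ⟨z, ⟨x, hx, rfl⟩, -⟩ := h22.2
    exact ⟨d, hd, x, hx.1, hx.2.1.symm, hx.2.2⟩

end W23

theorem W23.all (h : W23 D) {a : G} (ha : a ∈ D) : H22 (qperp D a) := by
  obtain ⟨hq, b, hb, -, -, -, h22⟩ := h.special
  obtain ⟨g, rfl⟩ := exists_conj h.cls hb ha
  obtain ⟨e, he⟩ := exists_qperp_conj h.hconj g b
  obtain ⟨e₀, he₀, hae₀⟩ := h.core.nc _ ha
  have ht := typ22_map e he h22.typ
  have hp := prim_qperp h.cls h.irr ha he₀ hae₀ hq ht.1 (noTwin_22 (w3_qperp (w3_of_set h.cls.1) _) ht)
  exact ⟨hp.1, hp.2.2.1, ht, hp.2.2.2⟩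

end Cfsg.Agent.F3W
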