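import Cfsg.Agent.Fi22.Pair23
import Cfsg.Agent.F3W.Simp

/-!
# Type M(23), without the joint centraliser: pairs

(the arguments are those of `Cfsg.Agent.Fi22.Pair23`)
-/

set_option autoImplicit false
set_option linter.unusedSectionVars false
set_option linter.unusedSimpArgs false

namespace Cfsg.Agent.F3W

open Finset Cfsg.Agent.Uni Cfsg.Agent.Fi22 Cfsg.Agent.ThreeTransp

variable {G : Type*} [Group G] {D : Set G}

namespace W23

variable [Finite G] (h : W23 D) {a e : G} (ha : a ∈ D) (he : e ∈ perp D a)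
include h ha he

/-- the group generated by the members commuting with `a` and `e` -/
abbrev MM (D : Set G) (a e : G) : Subgroup G := Subgroup.closure (perp D a ∩ perp D e)

omit h in
theorem ae : a ∈ perp D e := ⟨ha, he.2.1.symm, he.2.2.symm⟩

theorem exists_fact_off : ∃ t, IsFact D 6 a t ∧ ∀ y ∈ t, y ∈ perp D a ∩ perp D e := by
  obtain ⟨e₀, he₀, hae₀⟩ := h.core.nc a ha
  have hX := h.all ha
  obtain ⟨l, hl, hl2⟩ := hX.exists_hexad_off (qm_mem he)
  obtain ⟨t, ht, ht2, rfl⟩ := rel_up_list h.cls h.irr ha he₀ hae₀ (h.high.cp a ha) hl h.high.norel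
  refine ⟨t, ht, fun y hy => ⟨ht2 y hy, ?_⟩⟩
  have := hl2 _ (List.mem_map.2 ⟨y, hy, rfl⟩)
  rw [qφ_eq (ht2 y hy)] at this
  exact (qm_perp h.cls h.irr ha he₀ hae₀ he (ht2 y hy)).1 this

theorem a_mem : a ∈ MM D a e := by
  obtain ⟨t, ht, ht2⟩ := h.exists_fact_off ha he
  have h1 : t.prod ∈ MM D a e := Subgroup.list_prod_mem _ fun x hx => Subgroup.subset_closure (ht2 x hx)
  rwa [ht.2.2.2.2] at h1

theorem e_mem : e ∈ MM D a e := by
  have := h.a_mem he.1 (ae ha he)
  rwa [MM, Set.inter_comm] at this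

/-- lifting from the quotient -/
theorem exists_lift {z : ↥(Subgroup.closure (perp D a)) ⧸ Subgroup.center ↥(Subgroup.closure (perp D a))}
    (hz : z ∈ Subgroup.closure (perp (qperp D a) (qm D a e he))) :
    ∃ k : ↥(Subgroup.closure (perp D a)), (k : G) ∈ MM D a e ∧
      (k : ↥(Subgroup.closure (perp D a)) ⧸ Subgroup.center ↥(Subgroup.closure (perp D a))) = z := by
  obtain ⟨e₀, he₀, hae₀⟩ := h.core.nc a ha
  induction hz using Subgroup.closure_induction with
  | mem z hz =>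
    obtain ⟨y, hy, rfl⟩ := exists_qm hz.1
    exact ⟨⟨y, Subgroup.subset_closure hy⟩,
      Subgroup.subset_closure ⟨hy, (qm_perp h.cls h.irr ha he₀ hae₀ he hy).1 hz⟩, rfl⟩
  | one => exact ⟨1, one_mem _, rfl⟩
  | mul x y _ _ hx hy =>
    obtain ⟨k1, hk1, rfl⟩ := hx
    obtain ⟨k2, hk2, rfl⟩ := hy
    exact ⟨k1 * k2, mul_mem hk1 hk2, rfl⟩
  | inv x _ hx =>
    obtain ⟨k1, hk1, rfl⟩ := hx
    exact ⟨k1⁻¹, inv_mem hk1, rfl⟩

omit h ha in
theorem MM_le : MM D a e ≤ Subgroup.closure (perp D a) := Subgroup.closure_mono Set.inter_subset_left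

omit he in
theorem one_or {k g : G} (hk : k ∈ Subgroup.closure (perp D a)) (hg : g ∈ Subgroup.closure (perp D a))
    (hkg : ((⟨k, hk⟩ : ↥(Subgroup.closure (perp D a))) :
      ↥(Subgroup.closure (perp D a)) ⧸ Subgroup.center ↥(Subgroup.closure (perp D a))) =
      ((⟨g, hg⟩ : ↥(Subgroup.closure (perp D a))) : _)) : k⁻¹ * g = 1 ∨ k⁻¹ * g = a := by
  rw [QuotientGroup.eq, Subgroup.mem_center_iff] at hkg
  exact h.high.cp a ha (k⁻¹ * g) (fun y hy => congrArg Subtype.val (hkg ⟨y, Subgroup.subset_closure hy⟩))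

/-- the joint centraliser -/
theorem centralizer_pair : Subgroup.centralizer ({a, e} : Set G) = MM D a e := by
  obtain ⟨e₀, he₀, hae₀⟩ := h.core.nc a ha
  have hX := h.all ha
  apply le_antisymm
  · intro g hg
    have hga : Commute a g := Subgroup.mem_centralizer_iff.1 hg a (by simp)
    have hge : Commute e g := Subgroup.mem_centralizer_iff.1 hg e (by simp)
    have hg1 : g ∈ Subgroup.closure (perp D a) := by
      rw [← h.centralizer_eq ha, Subgroup.mem_centralizer_singleton_iff]; exact hga.eq.symm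
    have h1 : ((⟨g, hg1⟩ : ↥(Subgroup.closure (perp D a))) :
        ↥(Subgroup.closure (perp D a)) ⧸ Subgroup.center ↥(Subgroup.closure (perp D a))) ∈
        Subgroup.closure (perp (qperp D a) (qm D a e he)) := by
      rw [← hX.centralizer_eq (qm_mem he), Subgroup.mem_centralizer_singleton_iff]
      have h2 : Commute (⟨g, hg1⟩ : ↥(Subgroup.closure (perp D a))) ⟨e, Subgroup.subset_closure he⟩ :=
        Subtype.ext hge.symm
      exact (h2.map (QuotientGroup.mk' _)).eq
    obtain ⟨⟨k, hk'⟩, hk, hk2⟩ := h.exists_lift ha he h1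
    have e1 : g = k * (k⁻¹ * g) := by group
    rw [e1]
    apply mul_mem hk
    rcases h.one_or ha hk' hg1 hk2 with h3 | h3
    · rw [h3]; exact one_mem _
    · rw [h3]; exact h.a_mem ha he
  · rw [Subgroup.closure_le]
    rintro y ⟨hy1, hy2⟩
    rw [SetLike.mem_coe, Subgroup.mem_centralizer_iff]
    intro z hz
    rcases hz with rfl | hz
    · exact hy1.2.2
    · rw [Set.mem_singleton_iff.1 hz]; exact hy2.2.2

theorem mk_mem {k : G} (hk : k ∈ MM D a e) :
    ((⟨k, MM_le he hk⟩ : ↥(Subgroup.closure (perp D a))) :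
        ↥(Subgroup.closure (perp D a)) ⧸ Subgroup.center ↥(Subgroup.closure (perp D a))) ∈
        Subgroup.closure (perp (qperp D a) (qm D a e he)) := by
  obtain ⟨e₀, he₀, hae₀⟩ := h.core.nc a ha
  have key : ∀ hk' : k ∈ Subgroup.closure (perp D a), ((⟨k, hk'⟩ : ↥(Subgroup.closure (perp D a))) :
        ↥(Subgroup.closure (perp D a)) ⧸ Subgroup.center ↥(Subgroup.closure (perp D a))) ∈
        Subgroup.closure (perp (qperp D a) (qm D a e he)) := by
    induction hk using Subgroup.closure_induction with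
    | mem y hy => 
      intro hk'
      exact Subgroup.subset_closure ((qm_perp h.cls h.irr ha he₀ hae₀ he hy.1).2 hy.2)
    | one => intro hk'; exact one_mem _
    | mul x y hx' hy' hx hy =>
      intro hk'
      exact mul_mem (hx (MM_le he hx')) (hy (MM_le he hy'))
    | inv x hx' hx => 
      intro hk'
      exact inv_mem (hx (MM_le he hx'))
  exact key _

/-- the map to the centraliser in the quotient -/
noncomputable def toX : ↥(MM D a e) →* ↥(Subgroup.closure (perp (qperp D a) (qm D a e he))) :=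
  ((QuotientGroup.mk' (Subgroup.center ↥(Subgroup.closure (perp D a)))).comp
    (Subgroup.inclusion (MM_le he))).codRestrict _ (fun k => h.mk_mem ha he k.2)

theorem toX_surj : Function.Surjective (h.toX ha he) := by
  rintro ⟨z, hz⟩
  obtain ⟨⟨k, hk'⟩, hk, hk2⟩ := h.exists_lift ha he hz
  exact ⟨⟨k, hk⟩, Subtype.ext hk2⟩

theorem toX_ker {k : ↥(MM D a e)} (hk : h.toX ha he k = 1) : (k : G) = 1 ∨ (k : G) = a := by
  have h1 : ((⟨1, one_mem _⟩ : ↥(Subgroup.closure (perp D a))) :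
        ↥(Subgroup.closure (perp D a)) ⧸ Subgroup.center ↥(Subgroup.closure (perp D a))) =
        ((⟨(k : G), MM_le he k.2⟩ : ↥(Subgroup.closure (perp D a))) : _) := (congrArg Subtype.val hk).symm
  have h2 := h.one_or ha _ _ h1
  rwa [inv_one, one_mul] at h2

theorem a_comm {k : G} (hk : k ∈ MM D a e) : Commute a k := commute_of_mem_closure_perp (MM_le he hk)

theorem e_comm {k : G} (hk : k ∈ MM D a e) : Commute e k := by
  rw [MM, Set.inter_comm] at hk
  exact commute_of_mem_closure_perp (MM_le (ae ha he) hk)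

theorem V_comm {v k : G} (hv : v ∈ Subgroup.closure ({a, e} : Set G)) (hk : k ∈ MM D a e) : Commute v k := by
  induction hv using Subgroup.closure_induction with
  | mem y hy =>
    rcases hy with rfl | hy
    · exact h.a_comm ha he hk
    · rw [Set.mem_singleton_iff.1 hy]; exact h.e_comm ha he hk
  | one => exact Commute.one_left _
  | mul x y _ _ hx hy => exact hx.mul_left hy
  | inv x _ hx => exact hx.inv_left

theorem V_le : Subgroup.closure ({a, e} : Set G) ≤ MM D a e := by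
  rw [Subgroup.closure_le]
  rintro y (rfl | hy)
  · exact h.a_mem ha he
  · rw [Set.mem_singleton_iff.1 hy]; exact h.e_mem ha he

theorem mem_V_of {z : ↥(MM D a e)}
    (hz : ∀ u ∈ perp (qperp D a) (qm D a e he), Commute u (h.toX ha he z).1) :
    (z : G) ∈ Subgroup.closure ({a, e} : Set G) := by
  have haV : a ∈ Subgroup.closure ({a, e} : Set G) := Subgroup.subset_closure (by simp)
  have heV : e ∈ Subgroup.closure ({a, e} : Set G) := Subgroup.subset_closure (by simp)
  have hX := h.all ha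
  rcases hX.centralizer_perp (qm_mem he) hz with h1 | h1
  · have h2 : h.toX ha he z = 1 := Subtype.ext h1
    rcases h.toX_ker ha he h2 with h3 | h3
    · rw [h3]; exact one_mem _
    · rw [h3]; exact haV
  · have h2 : h.toX ha he (⟨e, h.e_mem ha he⟩⁻¹ * z) = 1 := by
      rw [map_mul, map_inv, inv_mul_eq_one]
      exact Subtype.ext h1.symm
    have e1 : (z : G) = e * (e⁻¹ * z) := by group
    have e2 : ((⟨e, h.e_mem ha he⟩⁻¹ * z : ↥(MM D a e)) : G) = e⁻¹ * z := rfl
    rw [e1]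
    apply mul_mem heV
    rcases h.toX_ker ha he h2 with h3 | h3
    · rw [← e2, h3]; exact one_mem _
    · rw [← e2, h3]; exact haV

/-- the centre -/
theorem center_MM : Subgroup.center ↥(MM D a e) = (Subgroup.closure ({a, e} : Set G)).subgroupOf (MM D a e) := by
  ext z
  rw [Subgroup.mem_subgroupOf]
  constructor
  · intro hz
    apply h.mem_V_of ha he
    intro u hu
    obtain ⟨k, hk⟩ := h.toX_surj ha he ⟨u, Subgroup.subset_closure hu⟩
    rw [Subgroup.mem_center_iff] at hz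
    have h1 := congrArg (fun t => (h.toX ha he t).1) (hz k)
    simp only [map_mul, Subgroup.coe_mul] at h1
    rw [hk] at h1
    exact h1
  · intro hz
    rw [Subgroup.mem_center_iff]
    intro k
    exact Subtype.ext (h.V_comm ha he hz k.2).symm.eq

theorem conj_Δ {y z : G} (hy : y ∈ perp D a ∩ perp D e) (hz : z ∈ perp D a ∩ perp D e) :
    ∃ m ∈ MM D a e, m * y * m⁻¹ = z := by
  obtain ⟨e₀, he₀, hae₀⟩ := h.core.nc a ha
  have hX := h.all ha
  obtain ⟨f, hf, hef⟩ := hX.exists_nc' (qm_mem he)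
  obtain ⟨g, hg, hg2⟩ := perp_single_class hX.cls hX.irr (qm_mem he) hf hef
    ((qm_perp h.cls h.irr ha he₀ hae₀ he hy.1).2 hy.2) ((qm_perp h.cls h.irr ha he₀ hae₀ he hz.1).2 hz.2)
  obtain ⟨⟨k, hk'⟩, hk, hk2⟩ := h.exists_lift ha he hg
  refine ⟨k, hk, ?_⟩
  have h1 : k * y * k⁻¹ ∈ perp D a := perp_conj_closed h.hconj hk' hy.1
  rw [← qm_inj h.cls h.irr ha he₀ hae₀ h1 hz.1, ← hg2, ← hk2]
  rfl

theorem perfect_MM : commutator ↥(MM D a e) = ⊤ := by
  have hX := h.all ha
  obtain ⟨t, ht, ht2⟩ := h.exists_fact_off ha he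
  obtain ⟨h1, h2, h3, h4, h5⟩ := ht
  have hself := h.a_mem ha he
  have hsub : (⟨a, hself⟩ : ↥(MM D a e)) ∈ commutator ↥(MM D a e) := by
    have key : ∀ t : List G, (ht : ∀ y ∈ t, y ∈ perp D a ∩ perp D e) →
        ∃ t' : List ↥(MM D a e), t'.length = t.length ∧ (t'.prod : G) = t.prod ∧
          ∀ y ∈ t', (y : G) ∈ perp D a ∩ perp D e := by
      intro t
      induction t with
      | nil => intro _; exact ⟨[], rfl, rfl, by simp⟩
      | cons y t ih =>
        intro ht
        obtain ⟨t', e1, e2, e3⟩ := ih (fun z hz => ht z (by simp [hz]))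
        refine ⟨⟨y, Subgroup.subset_closure (ht y (by simp))⟩ :: t', by simp [e1], ?_, ?_⟩
        · rw [List.prod_cons, Subgroup.coe_mul, e2, List.prod_cons]
        · intro z hz
          rcases List.mem_cons.1 hz with rfl | hz
          · exact ht y (by simp)
          · exact e3 z hz
    obtain ⟨t', e1, e2, e3⟩ := key t ht2
    have e4 : (⟨a, hself⟩ : ↥(MM D a e)) = t'.prod := Subtype.ext (by rw [e2, h5])
    rw [e4]
    apply list_prod_mem_commutator (S := {y : ↥(MM D a e) | (y : G) ∈ perp D a ∩ perp D e})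
    · intro y hy z hz
      obtain ⟨m, hm, hm2⟩ := h.conj_Δ ha he hy hz
      exact ⟨⟨m, hm⟩, Subtype.ext hm2⟩
    · intro y hy
      exact Subtype.ext (mul_self h.cls.1 hy.1.1)
    · exact e3
    · rw [e1, h2]; decide
  have h6 : (commutator ↥(MM D a e)).map (h.toX ha he) = ⊤ := by
    rw [commutator_def, Subgroup.map_commutator, Subgroup.map_top_of_surjective _
      (h.toX_surj ha he), ← commutator_def, hX.perfect (qm_mem he)]
  have hker : (h.toX ha he).ker ≤ commutator ↥(MM D a e) := by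
    intro k hk
    rcases h.toX_ker ha he (MonoidHom.mem_ker.1 hk) with h7 | h7
    · have : k = 1 := Subtype.ext h7
      rw [this]; exact one_mem _
    · have : k = ⟨a, hself⟩ := Subtype.ext h7
      rw [this]; exact hsub
  have h7 := congrArg (Subgroup.comap (h.toX ha he)) h6
  rw [Subgroup.comap_map_eq, Subgroup.comap_top, sup_eq_left.2 hker] at h7
  exact h7

/-- the quotient by the centre -/
theorem exists_quot : ∃ (F : Type) (_ : Field F) (_ : Fintype F), Fintype.card F = 4 ∧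
    Nonempty ((↥(MM D a e) ⧸ Subgroup.center ↥(MM D a e)) ≃* Cfsg.PSU 6 F 2) := by
  have hX := h.all ha
  obtain ⟨F, i1, i2, ⟨Δ⟩⟩ := hX.dict (qm_mem he)
  refine ⟨F, i1, i2, Δ.hF, ?_⟩
  let φ : ↥(MM D a e) →* Cfsg.PSU 6 F 2 := Δ.ψ.comp (h.toX ha he)
  have hφ : Function.Surjective φ := Δ.surj.comp (h.toX_surj ha he)
  have hker : φ.ker = Subgroup.center ↥(MM D a e) := by
    ext z
    rw [MonoidHom.mem_ker]
    change Δ.ψ (h.toX ha he z) = 1 ↔ _
    rw [← MonoidHom.mem_ker, Δ.ker]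
    constructor
    · intro hz
      rw [h.center_MM ha he, Subgroup.mem_subgroupOf]
      apply h.mem_V_of ha he
      intro u hu
      rw [Subgroup.mem_center_iff] at hz
      exact congrArg Subtype.val (hz ⟨u, Subgroup.subset_closure hu⟩)
    · intro hz
      rw [Subgroup.mem_center_iff] at hz ⊢
      intro u
      obtain ⟨k, rfl⟩ := h.toX_surj ha he u
      rw [← map_mul, ← map_mul, hz k]
  exact ⟨(QuotientGroup.quotientMulEquivOfEq hker.symm).trans (QuotientGroup.quotientKerEquivOfSurjective φ hφ)⟩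

theorem quasi_MM : Cfsg.IsQuasisimple ↥(MM D a e) := by
  obtain ⟨F, i1, i2, hF, ⟨f⟩⟩ := h.exists_quot ha he
  refine ⟨⟨h.perfect_MM ha he⟩, ?_⟩
  have := psu6_simple (F := F) hF
  exact f.isSimpleGroup

omit ha he in
theorem fhyp : FHyp D where
  cls := h.cls
  irr := h.irr
  nc := h.core.nc
  core := by
    intro d hd
    have h1 := (h.all hd).simple
    have : Fact (Nat.Prime 2) := ⟨Nat.prime_two⟩
    apply core_le_center_of_quot_equiv_simple (MulEquiv.refl _) h1
    intro hc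
    obtain ⟨f, -, hf⟩ := (h.all hd).exists_nc' (qm_mem (h.core.prn d hd).some_mem)
    exact hf (hc _ _)

/-- members of the centraliser of `a * e` fix or interchange `a` and `e` -/
theorem cent_mul {c : G} (hc : Commute c (a * e)) : (c * a * c⁻¹ = a ∧ c * e * c⁻¹ = e) ∨
    (c * a * c⁻¹ = e ∧ c * e * c⁻¹ = a) := by
  have hca := h.hconj c a ha
  have hce := h.hconj c e he.1
  have hne : c * a * c⁻¹ ≠ c * e * c⁻¹ := fun h1 => he.2.1 (conj_inj c h1).symm
  have hcc : Commute (c * a * c⁻¹) (c * e * c⁻¹) := (commute_conj_iff c).2 he.2.2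
  have hp : c * a * c⁻¹ * (c * e * c⁻¹) = a * e := by
    have : c * a * c⁻¹ * (c * e * c⁻¹) = c * (a * e) * c⁻¹ := by group
    rw [this, hc.eq, mul_inv_cancel_right]
  have h1 := h.fhyp.pair hca hce ha he.1 hne he.2.1.symm hcc he.2.2 hp
  rcases h1 with h1 | h1
  · left
    refine ⟨h1, ?_⟩
    rw [h1] at hp
    exact mul_left_cancel hp
  · right
    refine ⟨h1, ?_⟩
    rw [h1, he.2.2.eq] at hp
    exact mul_left_cancel hp

end W23

namespace W23

variable [Finite G] (h : W23 D) {a e : G} (ha : a ∈ D) (he : e ∈ perp D a)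
include h ha he

theorem cent_two {C : Subgroup G} (hC : C = Subgroup.centralizer ({a * e} : Set G)) :
    MM D a e ≤ C ∧ ((MM D a e).subgroupOf C).index = 2 := by
  subst hC
  have h1 : MM D a e ≤ Subgroup.centralizer ({a * e} : Set G) := by
    intro k hk
    rw [Subgroup.mem_centralizer_singleton_iff]
    exact ((h.a_comm ha he hk).mul_left (h.e_comm ha he hk)).eq.symm
  refine ⟨h1, ?_⟩
  obtain ⟨e₀, he₀, hae₀⟩ := h.core.nc a ha
  obtain ⟨s, s1, s2⟩ := exists_conj_pair h.cls h.irr ha he he.1 (ae ha he) he₀ hae₀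
  have hs : s ∈ Subgroup.centralizer ({a * e} : Set G) := by
    rw [Subgroup.mem_centralizer_singleton_iff]
    have e1 : s * (a * e) * s⁻¹ = a * e := by
      have : s * (a * e) * s⁻¹ = (s * a * s⁻¹) * (s * e * s⁻¹) := by group
      rw [this, s1, s2, he.2.2.eq]
    calc s * (a * e) = s * (a * e) * s⁻¹ * s := by group
      _ = a * e * s := by rw [e1]
  have hmem : ∀ c : G, c ∈ MM D a e ↔ c * a * c⁻¹ = a ∧ c * e * c⁻¹ = e := by
    intro c
    rw [← h.centralizer_pair ha he, Subgroup.mem_centralizer_iff]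
    constructor
    · intro h2
      refine ⟨?_, ?_⟩
      · rw [← h2 a (by simp), mul_inv_cancel_right]
      · rw [← h2 e (by simp), mul_inv_cancel_right]
    · rintro ⟨h2, h3⟩ z hz
      rcases hz with rfl | hz
      · exact (mul_inv_eq_iff_eq_mul.1 h2).symm
      · rw [Set.mem_singleton_iff.1 hz]; exact (mul_inv_eq_iff_eq_mul.1 h3).symm
  rw [Subgroup.index_eq_two_iff]
  refine ⟨⟨s, hs⟩, ?_⟩
  rintro ⟨b, hb⟩
  have hb' : Commute b (a * e) := Subgroup.mem_centralizer_singleton_iff.1 hb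
  rw [Subgroup.mem_subgroupOf, Subgroup.mem_subgroupOf]
  change Xor (b * s ∈ MM D a e) (b ∈ MM D a e)
  have e1 : b * s * a * (b * s)⁻¹ = b * e * b⁻¹ := by
    rw [← s1]; group
  have e2 : b * s * e * (b * s)⁻¹ = b * a * b⁻¹ := by
    have : b * s * e * (b * s)⁻¹ = b * (s * e * s⁻¹) * b⁻¹ := by group
    rw [this, s2]
  rw [hmem, hmem, e1, e2]
  have hne : a ≠ e := he.2.1.symm
  rcases h.cent_mul ha he hb' with ⟨h2, h3⟩ | ⟨h2, h3⟩
  · right
    exact ⟨⟨h2, h3⟩, fun h4 => hne (h2.symm.trans h4.2)⟩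
  · left
    exact ⟨⟨h3, h2⟩, fun h4 => hne (h4.1.symm.trans h2)⟩

theorem center_quot {C V : Subgroup G} (hC : C = Subgroup.centralizer ({a * e} : Set G))
    (hV : V = Subgroup.closure ({a, e} : Set G)) [hn : (V.subgroupOf C).Normal] :
    Subgroup.center (↥C ⧸ V.subgroupOf C) = ⊥ := by
  have hK := (h.cent_two ha he hC).1
  rw [eq_bot_iff]
  intro z hz
  obtain ⟨⟨c, hc⟩, rfl⟩ := QuotientGroup.mk_surjective z
  rw [Subgroup.mem_bot, QuotientGroup.eq_one_iff, Subgroup.mem_subgroupOf]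
  change c ∈ V
  rw [Subgroup.mem_center_iff] at hz
  -- commutators with `K`
  have h1 : ∀ k ∈ MM D a e, ∃ v ∈ V, c * k = k * c * v := by
    intro k hk
    have h2 := hz ((⟨k, hK hk⟩ : ↥C) : ↥C ⧸ V.subgroupOf C)
    rw [← QuotientGroup.mk_mul, ← QuotientGroup.mk_mul, QuotientGroup.eq, Subgroup.mem_subgroupOf] at h2
    refine ⟨(k * c)⁻¹ * (c * k), h2, by group⟩
  have hVc : ∀ v ∈ V, ∀ k ∈ MM D a e, Commute v k := by
    intro v hv k hk
    rw [hV] at hv
    exact h.V_comm ha he hv hk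
  have hVn : ∀ v ∈ V, c * v * c⁻¹ ∈ V := by
    intro v hv
    have hVC : V ≤ C := hV ▸ (h.V_le ha he).trans hK
    have := hn.conj_mem ⟨v, hVC hv⟩ (Subgroup.mem_subgroupOf.2 hv) ⟨c, hc⟩
    exact Subgroup.mem_subgroupOf.1 this
  have h2 : ∀ k ∈ MM D a e, ∃ v ∈ V, c * k * c⁻¹ = k * v := by
    intro k hk
    obtain ⟨v, hv, hv2⟩ := h1 k hk
    refine ⟨c * v * c⁻¹, hVn v hv, ?_⟩
    rw [hv2]; group
  -- `c` centralises `K`
  have h3 : commutator ↥(MM D a e) ≤ (Subgroup.centralizer ({c} : Set G)).subgroupOf (MM D a e) := by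
    rw [commutator_def, Subgroup.commutator_le]
    rintro ⟨k, hk⟩ - ⟨l, hl⟩ -
    obtain ⟨v, hv, hv2⟩ := h2 k hk
    obtain ⟨w, hw, hw2⟩ := h2 l hl
    rw [Subgroup.mem_subgroupOf, Subgroup.mem_centralizer_singleton_iff]
    change (k * l * k⁻¹ * l⁻¹) * c = c * (k * l * k⁻¹ * l⁻¹)
    have hvV : v ∈ MM D a e := by
      rw [hV] at hv; exact h.V_le ha he hv
    have c1 := hVc v hv k hk
    have c2 := hVc v hv l hl
    have c3 := hVc w hw k hk
    have c4 := hVc w hw l hl
    have c5 := hVc w hw v hvV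
    have e1 : c * (k * l * k⁻¹ * l⁻¹) * c⁻¹ = k * l * k⁻¹ * l⁻¹ := by
      have : c * (k * l * k⁻¹ * l⁻¹) * c⁻¹ = (c * k * c⁻¹) * (c * l * c⁻¹) * (c * k * c⁻¹)⁻¹ * (c * l * c⁻¹)⁻¹ := by group
      rw [this, hv2, hw2, mul_inv_rev, mul_inv_rev]
      have f1 : k * v * (l * w) * (v⁻¹ * k⁻¹) * (w⁻¹ * l⁻¹) = k * (v * (l * w)) * v⁻¹ * k⁻¹ * w⁻¹ * l⁻¹ := by group
      have f2 : v * (l * w) = l * w * v := (c2.mul_right c5.symm).eq
      have f3 : w * k⁻¹ * w⁻¹ = k⁻¹ := by rw [(c3.inv_right).eq, mul_inv_cancel_right]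
      rw [f1, f2]
      have f4 : k * (l * w * v) * v⁻¹ * k⁻¹ * w⁻¹ * l⁻¹ = k * l * (w * k⁻¹ * w⁻¹) * l⁻¹ := by group
      rw [f4, f3]
    calc (k * l * k⁻¹ * l⁻¹) * c = c * (k * l * k⁻¹ * l⁻¹) * c⁻¹ * c := by rw [e1]
      _ = c * (k * l * k⁻¹ * l⁻¹) := by group
  rw [h.perfect_MM ha he] at h3
  have h4 : ∀ k ∈ MM D a e, Commute c k := by
    intro k hk
    have := h3 (Subgroup.mem_top (⟨k, hk⟩ : ↥(MM D a e)))
    rw [Subgroup.mem_subgroupOf, Subgroup.mem_centralizer_singleton_iff] at this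
    exact this.symm
  have h5 : c ∈ MM D a e := by
    rw [← h.centralizer_pair ha he, Subgroup.mem_centralizer_iff]
    intro z hz
    rcases hz with rfl | hz
    · exact (h4 _ (h.a_mem ha he)).symm.eq
    · rw [Set.mem_singleton_iff.1 hz]; exact (h4 _ (h.e_mem ha he)).symm.eq
  have h6 : (⟨c, h5⟩ : ↥(MM D a e)) ∈ Subgroup.center ↥(MM D a e) := by
    rw [Subgroup.mem_center_iff]
    intro k
    exact Subtype.ext (h4 k k.2).symm.eq
  rw [h.center_MM ha he, Subgroup.mem_subgroupOf] at h6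
  rw [hV]; exact h6

theorem center_map_MM : (Subgroup.center ↥(MM D a e)).map (MM D a e).subtype = Subgroup.closure ({a, e} : Set G) := by
  rw [h.center_MM ha he, Subgroup.map_subgroupOf_eq_of_le (h.V_le ha he)]

end W23

end Cfsg.Agent.F3W
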