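import Cfsg.Agent.Fi22.Oct
import Cfsg.Agent.F3W.Pair

/-!
# Type M(23), without the joint centraliser: relations

(the arguments are those of `Cfsg.Agent.Fi22.Oct`)
-/

set_option autoImplicit false
set_option linter.unusedSectionVars false
set_option linter.unusedSimpArgs false

namespace Cfsg.Agent.F3W

open Finset Cfsg.Agent.Uni Cfsg.Agent.Fi22 Cfsg.Agent.ThreeTransp

variable {G : Type*} [Group G] {D : Set G}

variable [Finite G]

theorem W23.oct (h : W23 D) : Oct D 4 := by
  intro l hnd hlen hl hc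
  obtain ⟨a, l, rfl⟩ : ∃ a l', l = a :: l' := by
    cases l with
    | nil => simp at hlen
    | cons a l' => exact ⟨a, l', rfl⟩
  have ha := hl a (by simp)
  obtain ⟨e₀, he₀, hae₀⟩ := h.core.nc a ha
  exact oct_up h.cls h.irr ha he₀ hae₀ (h.high.cp a ha) h.high.norel (h.all ha).oct hnd
    (by simpa using hlen) (fun x hx => hl x (by simp [hx])) hc

theorem W23.norel_two (h : W23 D) : ¬ ∃ l, IsFact D 2 1 l := by
  obtain ⟨-, a, ha, e₀, he₀, hae₀, h22⟩ := h.special
  exact norel_up h.cls h.irr ha he₀ hae₀ (norel_one h22.cls.1)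


end Cfsg.Agent.F3W
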