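import Cfsg.Agent.Fi22.Sys
import Cfsg.Agent.F3W.Oct

/-!
# Type M(23), without the joint centraliser: systems

(the arguments are those of `Cfsg.Agent.Fi22.Sys`)
-/

set_option autoImplicit false
set_option linter.unusedSectionVars false
set_option linter.unusedSimpArgs false

namespace Cfsg.Agent.F3W

open Finset Cfsg.Agent.Uni Cfsg.Agent.Fi22 Cfsg.Agent.ThreeTransp

variable {G : Type*} [Group G] {D : Set G}

theorem W23.desc [Finite G] (h : W23 D) {a : G} (ha : a ∈ D) : Desc D 6 a :=
  ⟨ha, h.cls, h.irr, h.core.nc a ha, h.high.cp a ha, h.high.norel⟩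

theorem W23.sys [Finite G] (h : W23 D) : Sys D 4 :=
  Sys.up (le_refl 3) (fun _ ha => h.desc ha) (fun _ ha => (h.all ha).sys)


end Cfsg.Agent.F3W
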